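import Mathlib.LinearAlgebra.Matrix.SpecialLinearGroup
import Mathlib.LinearAlgebra.Matrix.Transvection
import Mathlib.LinearAlgebra.Matrix.GeneralLinearGroup.Card

/-!
The centraliser of a transvection in SL(5, 2).
-/

set_option autoImplicit false

namespace Cfsg.Agent.Lib.Tv5

open Matrix

abbrev F2 := ZMod 2
abbrev M5 := Matrix (Fin 5) (Fin 5) (ZMod 2)

theorem comm_iff (g : M5) : g * transvection 0 1 1 = transvection 0 1 1 * g ↔
    (g 0 0 = g 1 1 ∧ (∀ a, a ≠ 0 → g a 0 = 0) ∧ (∀ b, b ≠ 1 → g 1 b = 0)) := by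
  have h01 : (0 : Fin 5) ≠ 1 := by decide
  constructor
  · intro h
    refine ⟨?_, fun a ha => ?_, fun b hb => ?_⟩
    · have h1 := congrFun (congrFun h 0) 1
      rw [mul_transvection_apply_same, transvection_mul_apply_same, one_mul, one_mul] at h1
      exact add_left_cancel h1
    · have h1 := congrFun (congrFun h a) 1
      rw [mul_transvection_apply_same, transvection_mul_apply_of_ne _ _ _ _ ha, one_mul] at h1
      simpa using h1
    · have h1 := congrFun (congrFun h 0) b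
      rw [mul_transvection_apply_of_ne _ _ _ _ hb, transvection_mul_apply_same, one_mul] at h1
      simpa using h1.symm
  · rintro ⟨h1, h2, h3⟩
    ext a b
    by_cases ha : a = 0
    · subst ha
      by_cases hb : b = 1
      · subst hb
        rw [mul_transvection_apply_same, transvection_mul_apply_same, h1]
      · rw [mul_transvection_apply_of_ne _ _ _ _ hb, transvection_mul_apply_same, h3 b hb]; simp
    · by_cases hb : b = 1
      · subst hb
        rw [mul_transvection_apply_same, transvection_mul_apply_of_ne _ _ _ _ ha, h2 a ha]; simp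
      · rw [mul_transvection_apply_of_ne _ _ _ _ hb, transvection_mul_apply_of_ne _ _ _ _ ha]

/-- the lower right block -/
def blk (g : M5) : Matrix (Fin 3) (Fin 3) (ZMod 2) := fun i j => g i.succ.succ j.succ.succ

def g4 (g : M5) : Matrix (Fin 4) (Fin 4) (ZMod 2) := fun i j => g i.succ j.succ

theorem det_eq (g : M5) (h00 : g 0 0 = 1) (h11 : g 1 1 = 1) (h2 : ∀ a, a ≠ 0 → g a 0 = 0) (h3 : ∀ b, b ≠ 1 → g 1 b = 0) :
    g.det = (blk g).det := by
  rw [det_succ_column_zero, Fin.sum_univ_succ]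
  have e1 : ∑ i : Fin 4, (-1 : ZMod 2) ^ ((i.succ : Fin 5) : ℕ) * g i.succ 0 * (g.submatrix (Fin.succAbove i.succ) Fin.succ).det = 0 := by
    apply Finset.sum_eq_zero
    intro i _
    rw [h2 i.succ (Fin.succ_ne_zero i)]; ring
  rw [e1, add_zero, h00]
  simp only [Fin.val_zero, pow_zero, one_mul, mul_one]
  have e2 : g.submatrix (Fin.succAbove 0) Fin.succ = g4 g := by
    ext i j; rfl
  rw [e2, det_succ_row_zero, Fin.sum_univ_succ]
  have e3 : ∑ j : Fin 3, (-1 : ZMod 2) ^ ((j.succ : Fin 4) : ℕ) * g4 g 0 j.succ *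
      ((g4 g).submatrix Fin.succ (Fin.succAbove j.succ)).det = 0 := by
    apply Finset.sum_eq_zero
    intro j _
    have : g4 g 0 j.succ = 0 := h3 _ (by
      intro h
      exact Fin.succ_ne_zero j (Fin.succ_injective _ (h : j.succ.succ = Fin.succ 0)))
    rw [this]; ring
  rw [e3, add_zero]
  have e4 : g4 g 0 0 = 1 := h11
  rw [e4]
  simp only [Fin.val_zero, pow_zero, one_mul, mul_one]
  have e5 : (g4 g).submatrix Fin.succ (Fin.succAbove 0) = blk g := by
    ext i j; rfl
  rw [e5]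

abbrev P5 := ZMod 2 × (Fin 3 → ZMod 2) × (Fin 3 → ZMod 2) × SpecialLinearGroup (Fin 3) (ZMod 2)

def bd (b : ZMod 2) (a c : Fin 3 → ZMod 2) (h : Matrix (Fin 3) (Fin 3) (ZMod 2)) : M5 :=
  Fin.cons (Fin.cons 1 (Fin.cons b a)) (Fin.cons (Fin.cons 0 (Fin.cons 1 (fun _ => 0))) (fun i => Fin.cons 0 (Fin.cons (c i) (h i))))

theorem blk_bd (b : ZMod 2) (a c : Fin 3 → ZMod 2) (h : Matrix (Fin 3) (Fin 3) (ZMod 2)) : blk (bd b a c h) = h := by
  ext i j; rfl

def Cs : Type := {g : M5 // g.det = 1 ∧ (g 0 0 = g 1 1 ∧ (∀ a, a ≠ 0 → g a 0 = 0) ∧ (∀ b, b ≠ 1 → g 1 b = 0))}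

theorem one_of_ne {x : ZMod 2} (h : x ≠ 0) : x = 1 := by revert x; decide

theorem diag_one (g : Cs) : g.1 0 0 = 1 ∧ g.1 1 1 = 1 := by
  obtain ⟨g, hdet, h1, h2, h3⟩ := g
  have h0 : g 0 0 ≠ 0 := by
    intro h0
    have : g.det = 0 := det_eq_zero_of_column_eq_zero 0 (fun a => by
      by_cases ha : a = 0
      · rw [ha, h0]
      · exact h2 a ha)
    rw [this] at hdet
    exact absurd hdet (by decide)
  have h00 : g 0 0 = 1 := one_of_ne h0
  exact ⟨h00, h1.symm.trans h00⟩

def toP (g : Cs) : P5 := (g.1 0 1, fun j => g.1 0 j.succ.succ, fun i => g.1 i.succ.succ 1, ⟨blk g.1, by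
  rw [← det_eq g.1 (diag_one g).1 (diag_one g).2 g.2.2.2.1 g.2.2.2.2]; exact g.2.1⟩)

theorem toP_inj : Function.Injective toP := by
  intro g k h
  have hg := diag_one g
  have hk := diag_one k
  have h1 : g.1 0 1 = k.1 0 1 := congrArg Prod.fst h
  have h2 : (fun j : Fin 3 => g.1 0 j.succ.succ) = fun j => k.1 0 j.succ.succ := congrArg (fun x => x.2.1) h
  have h3 : (fun i : Fin 3 => g.1 i.succ.succ 1) = fun i => k.1 i.succ.succ 1 := congrArg (fun x => x.2.2.1) h
  have h4 : (toP g).2.2.2 = (toP k).2.2.2 := congrArg (fun x => x.2.2.2) h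
  have h4' : blk g.1 = blk k.1 := congrArg Subtype.val h4
  apply Subtype.ext
  ext i j
  refine Fin.cases ?_ (fun i => Fin.cases ?_ (fun i => ?_) i) i
  · refine Fin.cases ?_ (fun j => Fin.cases ?_ (fun j => ?_) j) j
    · rw [hg.1, hk.1]
    · exact h1
    · exact congrFun h2 j
  · by_cases hj : j = 1
    · subst hj; exact hg.2.trans hk.2.symm
    · exact (g.2.2.2.2 j hj).trans (k.2.2.2.2 j hj).symm
  · refine Fin.cases ?_ (fun j => Fin.cases ?_ (fun j => ?_) j) j
    · exact (g.2.2.2.1 _ (Fin.succ_ne_zero _)).trans (k.2.2.2.1 _ (Fin.succ_ne_zero _)).symm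
    · exact congrFun h3 i
    · exact congrFun (congrFun h4' i) j

theorem toP_surj : Function.Surjective toP := by
  rintro ⟨b, a, c, h⟩
  have c1 : (bd b a c h) 0 0 = 1 := rfl
  have c2 : (bd b a c h) 1 1 = 1 := rfl
  have c3 : ∀ i, i ≠ 0 → (bd b a c h) i 0 = 0 := by
    intro i
    refine Fin.cases (fun h => absurd rfl h) (fun i => Fin.cases (fun _ => rfl) (fun i _ => rfl) i) i
  have c4 : ∀ j, j ≠ 1 → (bd b a c h) 1 j = 0 := by
    intro j
    refine Fin.cases (fun _ => rfl) (fun j => Fin.cases (fun h => absurd rfl h) (fun j _ => rfl) j) j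
  refine ⟨⟨bd b a c h, ?_, c1.trans c2.symm, c3, c4⟩, ?_⟩
  · rw [det_eq _ c1 c2 c3 c4, blk_bd]; exact h.2
  · rfl

end Cfsg.Agent.Lib.Tv5
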