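import Cfsg.Agent.Lib.Tv5.Basic
import Cfsg.Agent.Lib.GLSL

/-!
The centraliser of a transvection in SL(5, 2): its order.
-/

set_option autoImplicit false

namespace Cfsg.Agent.Lib.Tv5

open Matrix

theorem card_u : Nat.card (ZMod 2)ˣ = 1 := by
  rw [Nat.card_eq_fintype_card]; decide

theorem card_SL32 : Nat.card (SpecialLinearGroup (Fin 3) (ZMod 2)) = 168 := by
  have : Fact (Nat.Prime 2) := ⟨Nat.prime_two⟩
  have h1 := Cfsg.Agent.Lib.GLSL.card_SL_mul_card_units (Fin 3) (ZMod 2)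
  have h2 : Nat.card (GL (Fin 3) (ZMod 2)) = 168 := by
    rw [Matrix.card_GL_field]
    simp only [ZMod.card]
    decide
  rw [card_u, mul_one] at h1
  exact h1.trans h2

theorem card_P5 : Nat.card P5 = 21504 := by
  have e1 : Nat.card (ZMod 2) = 2 := by rw [Nat.card_eq_fintype_card]; rfl
  have e2 : Nat.card (Fin 3 → ZMod 2) = 8 := by rw [Nat.card_eq_fintype_card]; decide
  rw [Nat.card_prod, Nat.card_prod, Nat.card_prod, card_SL32, e1, e2]

theorem main (s : SpecialLinearGroup (Fin 5) (ZMod 2)) (hs : (s : Matrix (Fin 5) (Fin 5) (ZMod 2)) = transvection 0 1 1) :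
    Nat.card (Subgroup.centralizer ({s} : Set (SpecialLinearGroup (Fin 5) (ZMod 2)))) = 21504 := by
  rw [← card_P5, ← Nat.card_congr (Equiv.ofBijective toP ⟨toP_inj, toP_surj⟩)]
  have key : ∀ g : SpecialLinearGroup (Fin 5) (ZMod 2), g ∈ Subgroup.centralizer ({s} : Set (SpecialLinearGroup (Fin 5) (ZMod 2))) ↔
      (g : M5) * transvection 0 1 1 = transvection 0 1 1 * (g : M5) := by
    intro g
    rw [Subgroup.mem_centralizer_iff]
    constructor
    · intro h
      have h1 : (s : M5) * (g : M5) = (g : M5) * (s : M5) := congrArg (fun x : SpecialLinearGroup (Fin 5) (ZMod 2) => (x : M5)) (h s rfl)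
      rw [hs] at h1
      exact h1.symm
    · intro h x hx
      rw [Set.mem_singleton_iff] at hx
      rw [hx]
      apply Subtype.ext
      show (s : M5) * (g : M5) = (g : M5) * (s : M5)
      rw [hs]; exact h.symm
  refine Nat.card_congr ⟨fun g => ⟨g.1.1, g.1.2, (comm_iff _).1 ((key g.1).1 g.2)⟩, fun g => ⟨⟨g.1, g.2.1⟩, (key _).2 ((comm_iff _).2 g.2.2)⟩,
    fun _ => rfl, fun _ => rfl⟩

end Cfsg.Agent.Lib.Tv5
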