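import Cfsg.Agent.Lib.Tv5.OrTrans

/-!
The transvections of the orthogonal groups over the field with two elements: the two statements.
-/

set_option autoImplicit false

namespace Cfsg.Agent.Lib.OrTrans

open Matrix Cfsg.Agent.Lib.Orth

theorem plus (m : ℕ) (hm : 3 ≤ m) : Cfsg.IsThreeTranspositionClass {g : ↥(Cfsg.isometryGroup (ZMod 2) (Cfsg.quadFormPlus m (ZMod 2))) | (((g : GL (Fin m ⊕ Fin m) (ZMod 2)) : Matrix (Fin m ⊕ Fin m) (Fin m ⊕ Fin m) (ZMod 2)) - 1).rank = 1} := by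
  have h := main (Q := qPlus m (ZMod 2)) nd_plus (by rw [Fintype.card_sum, Fintype.card_fin]; omega)
  rw [coe_qPlus] at h
  exact h

theorem hab2 : ∀ z₁ z₂ : ZMod 2, z₁ ^ 2 + 1 * z₁ * z₂ + 1 * z₂ ^ 2 = 0 → z₁ = 0 ∧ z₂ = 0 := by decide

theorem minus (m : ℕ) (hm : 2 ≤ m) : Cfsg.IsThreeTranspositionClass {g : ↥(Cfsg.isometryGroup (ZMod 2) (Cfsg.quadFormMinus m (ZMod 2) 1 1)) | (((g : GL ((Fin m ⊕ Fin m) ⊕ Fin 2) (ZMod 2)) : Matrix ((Fin m ⊕ Fin m) ⊕ Fin 2) ((Fin m ⊕ Fin m) ⊕ Fin 2) (ZMod 2)) - 1).rank = 1} := by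
  have h := main (Q := qMinus m (ZMod 2) 1 1) (nd_minus hab2) (by
    rw [Fintype.card_sum, Fintype.card_sum, Fintype.card_fin, Fintype.card_fin]; omega)
  rw [coe_qMinus] at h
  exact h

end Cfsg.Agent.Lib.OrTrans
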