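import Cfsg.Agent.Lib.Orth4
import Cfsg.Agent.Lib.Orth9
import Cfsg.Prelude.Def_SporadicB

/-!
The transvections of the orthogonal groups over the field with two elements.
-/

set_option autoImplicit false

namespace Cfsg.Agent.Lib.OrTrans

open Matrix QuadraticMap Cfsg.Agent.Lib.Orth

theorem f2 (a : ZMod 2) : a = 0 ∨ a = 1 := by revert a; decide

section Abs

variable {V : Type*} [AddCommGroup V] [Module (ZMod 2) V] [FiniteDimensional (ZMod 2) V] {Q : QuadraticForm (ZMod 2) V}

def RV (Q : QuadraticForm (ZMod 2) V) : Set ↥(O Q) := {g | ∃ v, Q v ≠ 0 ∧ g = rf Q v}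

theorem dbl (v : V) : v + v = 0 := by
  rw [← two_smul (ZMod 2) v]
  have : (2 : ZMod 2) = 0 := by decide
  rw [this, zero_smul]

theorem sub_eq (v w : V) : v - w = v + w := by
  rw [sub_eq_iff_eq_add, add_assoc, dbl, add_zero]

theorem rf_apply {v : V} (hv : Q v ≠ 0) (x : V) : (rf Q v).1 x = x + (polar Q x v) • v := by
  show x - ((Q v)⁻¹ * polar Q x v) • v = _
  have : Q v = 1 := (f2 _).resolve_left hv
  rw [this, inv_one, one_mul, sub_eq]

theorem ext_O {g h : ↥(O Q)} (H : ∀ x, g.1 x = h.1 x) : g = h := Subtype.ext (LinearEquiv.ext H)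

theorem three_abs (hQ : ND Q) : Cfsg.IsThreeTranspositionSet (RV Q) := by
  constructor
  · rintro _ ⟨v, hv, rfl⟩
    refine orderOf_eq_prime (by rw [pow_two, rf_mul_self]) ?_
    intro h
    have hv0 : v ≠ 0 := by rintro rfl; exact hv (map_zero Q)
    obtain ⟨y, hy⟩ := hQ.exists_ne hv0
    have h1 := rf_apply hv y
    rw [h] at h1
    have h2 : y = y + polar Q y v • v := h1
    have h3 : polar Q y v • v = 0 := by simpa using h2.symm
    rcases smul_eq_zero.1 h3 with h4 | h4
    · rw [QuadraticMap.polar_comm] at h4; exact hy h4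
    · exact hv0 h4
  · rintro _ ⟨v, hv, rfl⟩ _ ⟨w, hw, rfl⟩
    have hinv : ∀ u : V, (rf Q u)⁻¹ = rf Q u := fun u => by rw [inv_eq_iff_mul_eq_one, rf_mul_self]
    have c1 : rf Q v * rf Q w * rf Q v = rf Q (w + polar Q w v • v) := by
      have := conj_rf (rf Q v) w
      rwa [hinv, rf_apply hv] at this
    have c2 : rf Q w * rf Q v * rf Q w = rf Q (v + polar Q v w • w) := by
      have := conj_rf (rf Q w) v
      rwa [hinv, rf_apply hw] at this
    rcases f2 (polar Q w v) with h | h
    · left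
      rw [h, zero_smul, add_zero] at c1
      calc (rf Q v * rf Q w) ^ 2 = (rf Q v * rf Q w * rf Q v) * rf Q w := by rw [pow_two]; group
        _ = 1 := by rw [c1, rf_mul_self]
    · right
      have h' : polar Q v w = 1 := by rw [QuadraticMap.polar_comm]; exact h
      rw [h, one_smul] at c1
      rw [h', one_smul, add_comm] at c2
      have h3 : rf Q v * rf Q w * rf Q v = rf Q w * rf Q v * rf Q w := c1.trans c2.symm
      calc (rf Q v * rf Q w) ^ 3 = (rf Q v * rf Q w * rf Q v) * (rf Q w * rf Q v * rf Q w) := by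
            rw [pow_succ, pow_two]; group
        _ = (rf Q v * rf Q w * rf Q v) * (rf Q v * rf Q w * rf Q v) := by rw [h3]
        _ = rf Q v * rf Q w * (rf Q v * rf Q v) * rf Q w * rf Q v := by group
        _ = 1 := by rw [rf_mul_self, mul_one, mul_assoc (rf Q v), rf_mul_self, mul_one, rf_mul_self]

theorem class_abs (hQ : ND Q) (h1 : 1 ≤ Module.finrank (ZMod 2) V) : ∃ d ∈ RV Q, RV Q = conjugatesOf d := by
  obtain ⟨v, hv⟩ := exists_Q_ne_zero hQ h1
  refine ⟨rf Q v, ⟨v, hv, rfl⟩, ?_⟩
  ext g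
  change g ∈ RV Q ↔ IsConj (rf Q v) g
  rw [isConj_iff]
  constructor
  · rintro ⟨u, hu, rfl⟩
    have e1 : Q u = 1 := (f2 _).resolve_left hu
    have e2 : Q v = 1 := (f2 _).resolve_left hv
    exact exists_conj_rf hQ hu hv (a := 1) (by rw [e1, e2]; norm_num)
  · rintro ⟨a, rfl⟩
    rw [conj_rf]
    exact ⟨_, by rw [a.2 v]; exact hv, rfl⟩

theorem main_abs (hQ : ND Q) (h1 : 5 ≤ Module.finrank (ZMod 2) V) : Cfsg.IsThreeTranspositionClass (RV Q) :=
  ⟨three_abs hQ, class_abs hQ (by omega), closure_rf (R_eq_O hQ (Or.inr (by omega)))⟩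

end Abs

theorem transfer {G H : Type*} [Group G] [Group H] (e : G ≃* H) {D : Set G} {D' : Set H} (hD : ∀ g, g ∈ D ↔ e g ∈ D')
    (h : Cfsg.IsThreeTranspositionClass D') : Cfsg.IsThreeTranspositionClass D := by
  obtain ⟨⟨h1, h2⟩, ⟨d, hd, hcl⟩, hgen⟩ := h
  refine ⟨⟨fun g hg => ?_, fun g hg k hk => ?_⟩, ⟨e.symm d, ?_, ?_⟩, ?_⟩
  · rw [← MulEquiv.orderOf_eq e g]; exact h1 _ ((hD g).1 hg)
  · rcases h2 _ ((hD g).1 hg) _ ((hD k).1 hk) with h | h
    · left; apply e.injective; rw [map_pow, map_mul, map_one]; exact h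
    · right; apply e.injective; rw [map_pow, map_mul, map_one]; exact h
  · rw [hD, MulEquiv.apply_symm_apply]; exact hd
  · ext g
    rw [hD, hcl]
    change IsConj d (e g) ↔ IsConj (e.symm d) g
    rw [isConj_iff, isConj_iff]
    constructor
    · rintro ⟨c, hc⟩
      refine ⟨e.symm c, e.injective ?_⟩
      rw [map_mul, map_mul, map_inv, MulEquiv.apply_symm_apply, MulEquiv.apply_symm_apply, hc]
    · rintro ⟨c, rfl⟩
      exact ⟨e c, by rw [map_mul, map_mul, map_inv, MulEquiv.apply_symm_apply]⟩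
  · rw [eq_top_iff]
    intro g _
    have hg : e g ∈ Subgroup.closure D' := by rw [hgen]; trivial
    have hle : Subgroup.closure D' ≤ (Subgroup.closure D).map e.toMonoidHom := by
      rw [Subgroup.closure_le]
      intro k hk
      refine ⟨e.symm k, Subgroup.subset_closure ((hD _).2 (by rw [MulEquiv.apply_symm_apply]; exact hk)), ?_⟩
      exact e.apply_symm_apply k
    obtain ⟨k, hk, hkg⟩ := hle hg
    have : k = g := e.injective hkg
    rwa [← this]

variable {ι : Type} [Fintype ι] [DecidableEq ι] {Q : QuadraticForm (ZMod 2) (ι → ZMod 2)}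

theorem rank_iff (hQ : ND Q) (g : ↥(Cfsg.isometryGroup (ZMod 2) ⇑Q)) :
    (((g : GL ι (ZMod 2)) : Matrix ι ι (ZMod 2)) - 1).rank = 1 ↔ isoO Q g ∈ RV Q := by
  set S : Matrix ι ι (ZMod 2) := ((g : GL ι (ZMod 2)) : Matrix ι ι (ZMod 2)) with hS
  have hsub : ∀ x, (S - 1).mulVecLin x = S *ᵥ x - x := by
    intro x; rw [Matrix.mulVecLin_apply, Matrix.sub_mulVec, Matrix.one_mulVec]
  constructor
  · intro h
    unfold Matrix.rank at h
    obtain ⟨⟨v, hv⟩, hv0, hall⟩ := finrank_eq_one_iff'.1 h
    have hv0' : v ≠ 0 := fun e => hv0 (Subtype.ext e)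
    have h1 : ∀ x : ι → ZMod 2, ∃ c : ZMod 2, S *ᵥ x = x + c • v := by
      intro x
      obtain ⟨c, hc⟩ := hall ⟨(S - 1).mulVecLin x, ⟨x, rfl⟩⟩
      refine ⟨c, ?_⟩
      have h2 : c • v = (S - 1).mulVecLin x := congrArg Subtype.val hc
      rw [h2, hsub]; abel
    choose c hc using h1
    obtain ⟨z, hz⟩ := hv
    have hcz : c z = 1 := by
      rcases f2 (c z) with h5 | h5
      · exfalso
        rw [hsub, hc, h5, zero_smul, add_zero, sub_self] at hz
        exact hv0' hz.symm
      · exact h5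
    have hcadd : ∀ x, c (x + z) = c x + 1 := by
      intro x
      have h6 := hc (x + z)
      rw [Matrix.mulVec_add, hc x, hc z, hcz, one_smul] at h6
      have h7 : (c x + 1) • v = c (x + z) • v := by
        rw [add_smul, one_smul]
        have h8 : x + c x • v + (z + v) = x + z + (c x • v + v) := by abel
        rw [h8] at h6
        exact add_left_cancel h6
      have h9 : (c x + 1 - c (x + z)) • v = 0 := by rw [sub_smul, h7, sub_self]
      have := (smul_eq_zero.1 h9).resolve_right hv0'
      exact (sub_eq_zero.1 this).symm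
    have hpres : ∀ x, Q (x + c x • v) = Q x := by
      intro x
      have := (mem_isometryGroup (⇑Q) g.1).1 g.2 x
      change Q (S *ᵥ x) = Q x at this
      rwa [hc] at this
    have hone : ∀ x, c x = 1 → Q v + polar Q x v = 0 := by
      intro x hx
      have h6 := hpres x
      rw [hx, one_smul] at h6
      have h7 : polar Q x v = Q (x + v) - Q x - Q v := rfl
      rw [h7, h6]; ring
    have hzero : ∀ x, c x = 0 → polar Q x v = 0 := by
      intro x hx
      have h6 := hone (x + z) (by rw [hcadd, hx, zero_add])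
      have h7 := hone z hcz
      rw [QuadraticMap.polar_add_left] at h6
      linear_combination h6 - h7
    have hQv : Q v ≠ 0 := by
      intro h0
      apply hv0'
      apply hQ.eq_zero
      intro x
      rw [QuadraticMap.polar_comm]
      rcases f2 (c x) with h5 | h5
      · exact hzero x h5
      · have := hone x h5
        rwa [h0, zero_add] at this
    refine ⟨v, hQv, ext_O (fun x => ?_)⟩
    rw [rf_apply hQv, isoO_apply]
    change S *ᵥ x = _
    rw [hc]
    congr 2
    have hQ1 : Q v = 1 := (f2 _).resolve_left hQv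
    rcases f2 (c x) with h5 | h5
    · rw [h5, hzero x h5]
    · have h6 := hone x h5
      rw [hQ1] at h6
      rw [h5]
      generalize polar Q x v = p at h6
      revert p; decide
  · rintro ⟨v, hv, hg⟩
    have hv0 : v ≠ 0 := by rintro rfl; exact hv (map_zero Q)
    have hSx : ∀ x, S *ᵥ x = x + polar Q x v • v := by
      intro x
      have h1 : (isoO Q g).1 x = S *ᵥ x := isoO_apply Q g x
      rw [← h1, hg, rf_apply hv]
    unfold Matrix.rank
    have h : LinearMap.range (S - 1).mulVecLin = Submodule.span (ZMod 2) {v} := by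
      apply le_antisymm
      · rintro _ ⟨x, rfl⟩
        rw [hsub, hSx, add_sub_cancel_left]
        exact Submodule.smul_mem _ _ (Submodule.mem_span_singleton_self v)
      · rw [Submodule.span_singleton_le_iff_mem]
        obtain ⟨y, hy⟩ := hQ.exists_ne hv0
        have hy1 : polar Q y v = 1 := by
          rw [QuadraticMap.polar_comm]; exact (f2 _).resolve_left hy
        refine ⟨y, ?_⟩
        rw [hsub, hSx, add_sub_cancel_left, hy1, one_smul]
    rw [h, finrank_span_singleton hv0]

theorem main (hQ : ND Q) (h1 : 5 ≤ Fintype.card ι) :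
    Cfsg.IsThreeTranspositionClass {g : ↥(Cfsg.isometryGroup (ZMod 2) ⇑Q) | (((g : GL ι (ZMod 2)) : Matrix ι ι (ZMod 2)) - 1).rank = 1} :=
  transfer (isoO Q) (fun g => rank_iff hQ g) (main_abs hQ (by rw [Module.finrank_fintype_fun_eq_card]; exact h1))

end Cfsg.Agent.Lib.OrTrans
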