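import Cfsg.Agent.Lib.Symp3
import Cfsg.Prelude.Def_SporadicB

/-!
The transvections of the symplectic group over the field with two elements.
-/

set_option autoImplicit false

namespace Cfsg.Agent.Lib.SpTrans

open Matrix Cfsg.Agent.Lib.Symp

variable {n : ℕ}

local notation "Vn" => (Fin n ⊕ Fin n → ZMod 2)
local notation "Sp" => Matrix.symplecticGroup (Fin n) (ZMod 2)

theorem f2 (a : ZMod 2) : a = 0 ∨ a = 1 := by revert a; decide

theorem f2add (a : ZMod 2) : a + a = 0 := by revert a; decide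

/-- the transvections -/
def TV (n : ℕ) : Set (Matrix.symplecticGroup (Fin n) (ZMod 2)) := {g | ∃ w : (Fin n ⊕ Fin n → ZMod 2), w ≠ 0 ∧ g = tr w 1}

theorem exists_one {w : Vn} (hw : w ≠ 0) : ∃ y : Vn, Cfsg.sympForm n (ZMod 2) y w = 1 := by
  obtain ⟨y, hy⟩ := exists_form_ne_zero hw
  exact ⟨y, (f2 _).resolve_left hy⟩

theorem sub_one_mulVec (g : Sp) (x : Vn) : ((g : Matrix (Fin n ⊕ Fin n) (Fin n ⊕ Fin n) (ZMod 2)) - 1) *ᵥ x =
    (g : Matrix (Fin n ⊕ Fin n) (Fin n ⊕ Fin n) (ZMod 2)) *ᵥ x - x := by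
  rw [Matrix.sub_mulVec, Matrix.one_mulVec]

theorem rank_tr {w : Vn} (hw : w ≠ 0) : ((tr w 1 : Sp) - 1 : Matrix (Fin n ⊕ Fin n) (Fin n ⊕ Fin n) (ZMod 2)).rank = 1 := by
  unfold Matrix.rank
  have h : LinearMap.range ((tr w 1 : Sp) - 1 : Matrix (Fin n ⊕ Fin n) (Fin n ⊕ Fin n) (ZMod 2)).mulVecLin =
      Submodule.span (ZMod 2) {w} := by
    apply le_antisymm
    · rintro _ ⟨x, rfl⟩
      rw [Matrix.mulVecLin_apply, sub_one_mulVec, tr_mulVec, add_sub_cancel_left]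
      exact Submodule.smul_mem _ _ (Submodule.mem_span_singleton_self w)
    · rw [Submodule.span_singleton_le_iff_mem]
      obtain ⟨y, hy⟩ := exists_one hw
      refine ⟨y, ?_⟩
      rw [Matrix.mulVecLin_apply, sub_one_mulVec, tr_mulVec, add_sub_cancel_left, hy, one_mul, one_smul]
  rw [h, finrank_span_singleton hw]

theorem of_rank {g : Sp} (h : ((g : Matrix (Fin n ⊕ Fin n) (Fin n ⊕ Fin n) (ZMod 2)) - 1).rank = 1) :
    ∃ w : Vn, w ≠ 0 ∧ g = tr w 1 := by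
  unfold Matrix.rank at h
  obtain ⟨⟨v, hv⟩, hv0, hall⟩ := finrank_eq_one_iff'.1 h
  have hv0' : v ≠ 0 := fun e => hv0 (Subtype.ext e)
  have h1 : ∀ x : Vn, ∃ c : ZMod 2, (g : Matrix (Fin n ⊕ Fin n) (Fin n ⊕ Fin n) (ZMod 2)) *ᵥ x = x + c • v := by
    intro x
    obtain ⟨c, hc⟩ := hall ⟨((g : Matrix (Fin n ⊕ Fin n) (Fin n ⊕ Fin n) (ZMod 2)) - 1).mulVecLin x, ⟨x, rfl⟩⟩
    refine ⟨c, ?_⟩
    have h2 : c • v = ((g : Matrix (Fin n ⊕ Fin n) (Fin n ⊕ Fin n) (ZMod 2)) - 1) *ᵥ x := congrArg Subtype.val hc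
    rw [h2, sub_one_mulVec]; abel
  choose c hc using h1
  obtain ⟨y, hy⟩ := exists_one hv0'
  have h3 : ∀ x : Vn, c x = c y * Cfsg.sympForm n (ZMod 2) x v := by
    intro x
    have h4 := preserves g x y
    rw [hc, hc, sympForm_add_left, sympForm_add_right, sympForm_add_right, sympForm_smul_left, sympForm_smul_left,
      sympForm_smul_right, sympForm_smul_right, sympForm_self, sympForm_swap y v, hy] at h4
    generalize Cfsg.sympForm n (ZMod 2) x y = p at h4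
    generalize Cfsg.sympForm n (ZMod 2) x v = q at h4 ⊢
    generalize c x = r at h4 ⊢
    generalize c y = s at h4 ⊢
    revert p q r s; decide
  have hcy : c y = 1 := by
    rcases f2 (c y) with h5 | h5
    · exfalso
      obtain ⟨z, hz⟩ := hv
      rw [Matrix.mulVecLin_apply, sub_one_mulVec, hc, add_sub_cancel_left, h3 z, h5, zero_mul, zero_smul] at hz
      exact hv0' hz.symm
    · exact h5
  refine ⟨v, hv0', ext_sp (fun x => ?_)⟩
  rw [hc, tr_mulVec, h3 x, hcy]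

theorem TV_eq : {g : Sp | ((g : Matrix (Fin n ⊕ Fin n) (Fin n ⊕ Fin n) (ZMod 2)) - 1).rank = 1} = TV n := by
  ext g
  constructor
  · intro h; exact of_rank h
  · rintro ⟨w, hw, rfl⟩; exact rank_tr hw

theorem tr_sq (w : Vn) : (tr w 1 : Sp) * tr w 1 = 1 := by
  rw [tr_mul, f2add, tr_zero]

theorem tr_inv' (w : Vn) : (tr w 1 : Sp)⁻¹ = tr w 1 := by rw [inv_eq_iff_mul_eq_one, tr_sq]

theorem tr_ne_one {w : Vn} (hw : w ≠ 0) : (tr w 1 : Sp) ≠ 1 := by
  intro h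
  obtain ⟨y, hy⟩ := exists_one hw
  have h1 := tr_mulVec w 1 y
  rw [h, one_mulVec', hy, one_mul, one_smul] at h1
  exact hw (by simpa using h1.symm)

theorem conj2 (v w : Vn) : (tr v 1 : Sp) * tr w 1 * tr v 1 = tr (w + (Cfsg.sympForm n (ZMod 2) w v) • v) 1 := by
  have h := conj_tr (tr v 1 : Sp) w 1
  rw [tr_inv', tr_mulVec, one_mul] at h
  exact h

theorem swap2 (v w : Vn) : Cfsg.sympForm n (ZMod 2) w v = Cfsg.sympForm n (ZMod 2) v w := by
  rw [sympForm_swap v w]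
  generalize Cfsg.sympForm n (ZMod 2) v w = a
  revert a; decide

theorem three_set : Cfsg.IsThreeTranspositionSet (TV n) := by
  constructor
  · rintro _ ⟨w, hw, rfl⟩
    exact orderOf_eq_prime (by rw [pow_two, tr_sq]) (tr_ne_one hw)
  · rintro _ ⟨v, hv, rfl⟩ _ ⟨w, hw, rfl⟩
    rcases f2 (Cfsg.sympForm n (ZMod 2) w v) with h | h
    · left
      have h1 := conj2 v w
      rw [h, zero_smul, add_zero] at h1
      calc ((tr v 1 : Sp) * tr w 1) ^ 2 = ((tr v 1 : Sp) * tr w 1 * tr v 1) * tr w 1 := by rw [pow_two]; group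
        _ = 1 := by rw [h1, tr_sq]
    · right
      have h1 := conj2 v w
      have h2 := conj2 w v
      rw [h, one_smul] at h1
      rw [← swap2 v w, h, one_smul, add_comm] at h2
      have h3 : (tr v 1 : Sp) * tr w 1 * tr v 1 = tr w 1 * tr v 1 * tr w 1 := h1.trans h2.symm
      calc ((tr v 1 : Sp) * tr w 1) ^ 3 = ((tr v 1 : Sp) * tr w 1 * tr v 1) * (tr w 1 * tr v 1 * tr w 1) := by
            rw [pow_succ, pow_two]; group
        _ = ((tr v 1 : Sp) * tr w 1 * tr v 1) * (tr v 1 * tr w 1 * tr v 1) := by rw [h3]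
        _ = (tr v 1 : Sp) * tr w 1 * (tr v 1 * tr v 1) * tr w 1 * tr v 1 := by group
        _ = 1 := by rw [tr_sq, mul_one, mul_assoc (tr v 1 : Sp), tr_sq, mul_one, tr_sq]

theorem closure_TV : Subgroup.closure (TV n) = ⊤ := by
  rw [eq_top_iff, ← closure_tr, Subgroup.closure_le]
  rintro _ ⟨w, c, rfl⟩
  rcases f2 c with rfl | rfl
  · rw [tr_zero]; exact Subgroup.one_mem _
  · by_cases hw : w = 0
    · have : (tr w 1 : Sp) = 1 := by
        apply ext_sp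
        intro x
        rw [tr_mulVec, one_mulVec', hw, smul_zero, add_zero]
      rw [this]; exact Subgroup.one_mem _
    · exact Subgroup.subset_closure ⟨w, hw, rfl⟩

theorem class_TV (hn : 1 ≤ n) : ∃ d ∈ TV n, TV n = conjugatesOf d := by
  have h0 : (e (⟨0, hn⟩ : Fin n) : Vn) ≠ 0 := e_ne_zero _
  refine ⟨tr (e ⟨0, hn⟩) 1, ⟨_, h0, rfl⟩, ?_⟩
  ext g
  change g ∈ TV n ↔ IsConj (tr (e ⟨0, hn⟩) 1) g
  rw [isConj_iff]
  constructor
  · rintro ⟨w, hw, rfl⟩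
    obtain ⟨a, _, ha⟩ := exists_mulVec_eq (nonDeg_top (F := ZMod 2) (m := n)) (u := e ⟨0, hn⟩) (v := w) trivial trivial h0 hw
    exact ⟨a, by rw [conj_tr, ha]⟩
  · rintro ⟨a, rfl⟩
    rw [conj_tr]
    refine ⟨_, fun h => h0 ?_, rfl⟩
    apply mulVec_injective a
    show (a : Matrix (Fin n ⊕ Fin n) (Fin n ⊕ Fin n) (ZMod 2)) *ᵥ _ = (a : Matrix (Fin n ⊕ Fin n) (Fin n ⊕ Fin n) (ZMod 2)) *ᵥ 0
    rw [h, Matrix.mulVec_zero]

theorem main (hn : 1 ≤ n) : Cfsg.IsThreeTranspositionClass {g : Sp | ((g : Matrix (Fin n ⊕ Fin n) (Fin n ⊕ Fin n) (ZMod 2)) - 1).rank = 1} := by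
  rw [TV_eq]
  exact ⟨three_set, class_TV hn, closure_TV⟩

end Cfsg.Agent.Lib.SpTrans
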