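import Cfsg.Agent.Lib.Herm14
import Cfsg.Agent.Lib.Herm9
import Cfsg.Agent.Lib.Symp
import Cfsg.Prelude.Def_SporadicB

/-!
The transvections of the special unitary group over the field with four elements.
-/

set_option autoImplicit false

namespace Cfsg.Agent.Lib.SuTrans

open Matrix Cfsg.Agent.Lib.Herm Cfsg.Agent.Lib.FinGal Cfsg.Agent.Lib.HilbN

variable {F : Type} [Field F] [Fintype F] [DecidableEq F] {n : ℕ}

theorem two_zero (hF : Fintype.card F = 4) : (2 : F) = 0 := by
  have h := Nat.cast_card_eq_zero F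
  rw [hF] at h
  have h2 : (2 : F) * 2 = 0 := by push_cast at h; linear_combination h
  rcases mul_eq_zero.1 h2 with h | h <;> exact h

theorem transv_of_rank {S : Matrix (Fin n) (Fin n) F} (hdet : S.det = 1) (hr : (S - 1).rank = 1) : Cfsg.IsTransvection S := by
  refine ⟨hr, ?_⟩
  have hr' : Module.finrank F (LinearMap.range (Matrix.toLin' (S - 1))) = 1 := hr
  obtain ⟨e0, he0, hspan⟩ := finrank_eq_one_iff'.mp hr'
  have hex : ∀ x, ∃ c : F, c • (e0 : Fin n → F) = (S - 1) *ᵥ x := by
    intro x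
    obtain ⟨c, hc⟩ := hspan ⟨Matrix.toLin' (S - 1) x, LinearMap.mem_range_self _ x⟩
    exact ⟨c, congrArg Subtype.val hc⟩
  choose f hf using hex
  set φ : Fin n → F := fun j => f (Pi.single j 1) with hφ
  have hN : S - 1 = Matrix.vecMulVec (e0 : Fin n → F) φ := by
    ext i j
    have h1 := congrFun (hf (Pi.single j 1)) i
    rw [Matrix.mulVec_single_one] at h1
    rw [Matrix.vecMulVec_apply]
    simp only [Pi.smul_apply, smul_eq_mul, Matrix.col_apply] at h1
    rw [← h1, mul_comm]
  have hS : S = 1 + Matrix.vecMulVec (e0 : Fin n → F) φ := by rw [← hN]; abel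
  have hd : φ ⬝ᵥ (e0 : Fin n → F) = 0 := by
    rw [hS, Matrix.vecMulVec_eq Unit, Matrix.det_one_add_replicateCol_mul_replicateRow] at hdet
    linear_combination hdet
  rw [hN]
  ext i j
  rw [Matrix.mul_apply]
  simp only [Matrix.vecMulVec_apply, Matrix.zero_apply]
  have : ∑ k, (e0 : Fin n → F) i * φ k * ((e0 : Fin n → F) k * φ j) = (e0 : Fin n → F) i * φ j * (φ ⬝ᵥ (e0 : Fin n → F)) := by
    rw [dotProduct, Finset.mul_sum]
    exact Finset.sum_congr rfl (fun k _ => by ring)
  rw [this, hd, mul_zero]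

theorem form_of_transv {σ : F ≃+* F} (hF : Fintype.card F = 4) (hs1 : ∀ a, σ (σ a) = a) (hq : ∀ a, σ a = a ^ 2) (s : Cfsg.SU n F 2)
    (hs : Cfsg.IsTransvection ((s : SpecialLinearGroup (Fin n) F) : Matrix (Fin n) (Fin n) F)) :
    ∃ e : Fin n → F, e ≠ 0 ∧ (std σ hs1 n).h e e = 0 ∧
      ∀ x, ((s : SpecialLinearGroup (Fin n) F) : Matrix (Fin n) (Fin n) F) *ᵥ x = x + (std σ hs1 n).h x e • e := by
  have hB := std_nd hs1 n
  set B := std σ hs1 n with hBdef
  set S := ((s : SpecialLinearGroup (Fin n) F) : Matrix (Fin n) (Fin n) F) with hS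
  set N := S - 1 with hN
  have hr : Module.finrank F (LinearMap.range (Matrix.toLin' N)) = 1 := hs.1
  obtain ⟨e0, he0, hspan⟩ := finrank_eq_one_iff'.mp hr
  have he : (e0 : Fin n → F) ≠ 0 := fun h => he0 (Subtype.ext h)
  have hex : ∀ x, ∃ c : F, c • (e0 : Fin n → F) = N *ᵥ x := by
    intro x
    obtain ⟨c, hc⟩ := hspan ⟨Matrix.toLin' N x, LinearMap.mem_range_self _ x⟩
    exact ⟨c, congrArg Subtype.val hc⟩
  choose f hf using hex
  have hgf : ∀ x, ((suEquiv hs1 hq n s : B.siso) : (Fin n → F) ≃ₗ[F] (Fin n → F)) x = x + f x • (e0 : Fin n → F) := by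
    intro x
    rw [hf, suEquiv_apply]
    show S *ᵥ x = x + N *ᵥ x
    rw [hN, Matrix.sub_mulVec, Matrix.one_mulVec, add_sub_cancel]
  obtain ⟨x0, hx0⟩ : ∃ x, N *ᵥ x = (e0 : Fin n → F) := by
    obtain ⟨x, hx⟩ := e0.2
    exact ⟨x, hx⟩
  have hNe : N *ᵥ (e0 : Fin n → F) = 0 := by
    rw [← hx0, Matrix.mulVec_mulVec, hs.2, Matrix.zero_mulVec]
  have hfe : f (e0 : Fin n → F) = 0 := by
    have := hf (e0 : Fin n → F)
    rw [hNe] at this
    exact (smul_eq_zero.mp this).resolve_right he
  have hf0 : f x0 ≠ 0 := by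
    intro h
    have := hf x0
    rw [h, zero_smul, hx0] at this
    exact he this.symm
  obtain ⟨a, ha, hb, h⟩ := HF.sie_of_rank_one hB hs1 (suEquiv hs1 hq n s : B.siso).2.1 hgf hfe hf0 he
  have ha1 : a = 1 := by
    rw [hq] at hb
    have h5 : a * (1 + a) = 0 := by linear_combination hb
    have h6 := (mul_eq_zero.1 h5).resolve_left ha
    have h2 := two_zero hF
    linear_combination h6 - h2
  refine ⟨_, he, h.1, fun x => ?_⟩
  have h7 := h.2.2.2 x
  rw [suEquiv_apply] at h7
  change S *ᵥ x = _ at h7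
  rw [h7, ha1, B.zero_right]
  simp

theorem ext_su {s t : Cfsg.SU n F 2} (h : ∀ x, ((s : SpecialLinearGroup (Fin n) F) : Matrix (Fin n) (Fin n) F) *ᵥ x =
    ((t : SpecialLinearGroup (Fin n) F) : Matrix (Fin n) (Fin n) F) *ᵥ x) : s = t := by
  apply Subtype.ext
  apply Subtype.ext
  exact Cfsg.Agent.Lib.Symp.ext_mulVec h

theorem mul_mv (s t : Cfsg.SU n F 2) (x : Fin n → F) : (((s * t : Cfsg.SU n F 2) : SpecialLinearGroup (Fin n) F) : Matrix (Fin n) (Fin n) F) *ᵥ x =
    ((s : SpecialLinearGroup (Fin n) F) : Matrix (Fin n) (Fin n) F) *ᵥ (((t : SpecialLinearGroup (Fin n) F) : Matrix (Fin n) (Fin n) F) *ᵥ x) := by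
  rw [Matrix.mulVec_mulVec]; rfl

def TV (n : ℕ) (F : Type) [Field F] [Fintype F] [DecidableEq F] : Set ↥(Cfsg.SU n F 2) :=
  {g : ↥(Cfsg.SU n F 2) | (((g : Matrix.SpecialLinearGroup (Fin n) F) : Matrix (Fin n) (Fin n) F) - 1).rank = 1}

theorem tv_transv {s : Cfsg.SU n F 2} (hs : s ∈ TV n F) : Cfsg.IsTransvection ((s : SpecialLinearGroup (Fin n) F) : Matrix (Fin n) (Fin n) F) :=
  transv_of_rank (s : SpecialLinearGroup (Fin n) F).2 hs

theorem three_set (hF : Fintype.card F = 4) : Cfsg.IsThreeTranspositionSet (TV n F) := by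
  have hF' : Fintype.card F = 2 ^ 2 := by rw [hF]; norm_num
  obtain ⟨σ, hσ, hq⟩ := exists_sigma hF'
  obtain ⟨hs1, hs2, hs3⟩ := sigma_facts hσ
  have h20 := two_zero hF
  have dbl : ∀ x : Fin n → F, x + x = 0 := by
    intro x; rw [← two_smul F x, h20, zero_smul]
  have hsq : ∀ s ∈ TV n F, s * s = 1 := by
    intro s hs
    obtain ⟨e, he, hee, hf⟩ := form_of_transv hF hs1 hq s (tv_transv hs)
    apply ext_su
    intro x
    rw [mul_mv, hf, hf, (std σ hs1 n).add_left, (std σ hs1 n).smul_left, hee, mul_zero, add_zero, add_assoc, dbl, add_zero]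
    exact (Matrix.one_mulVec x).symm
  have hne : ∀ s ∈ TV n F, s ≠ 1 := by
    rintro s hs rfl
    have : (((1 : Cfsg.SU n F 2) : SpecialLinearGroup (Fin n) F) : Matrix (Fin n) (Fin n) F) - 1 = 0 := sub_self _
    unfold TV at hs
    rw [Set.mem_setOf_eq, this, Matrix.rank_zero] at hs
    exact absurd hs (by norm_num)
  constructor
  · intro s hs
    exact orderOf_eq_prime (by rw [pow_two, hsq s hs]) (hne s hs)
  · intro s hs t ht
    obtain ⟨e, he, hee, hf⟩ := form_of_transv hF hs1 hq s (tv_transv hs)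
    obtain ⟨k, hk, hkk, hg⟩ := form_of_transv hF hs1 hq t (tv_transv ht)
    have hsy := (std σ hs1 n).symm e k
    by_cases h0 : (std σ hs1 n).h e k = 0
    · left
      rw [h0, map_zero] at hsy
      have hc : s * t = t * s := by
        apply ext_su
        intro x
        rw [mul_mv, mul_mv, hf, hg, hg, hf, (std σ hs1 n).add_left, (std σ hs1 n).add_left, (std σ hs1 n).smul_left,
          (std σ hs1 n).smul_left, h0, hsy, mul_zero, mul_zero, add_zero, add_zero]
        abel
      calc (s * t) ^ 2 = s * (t * s) * t := by rw [pow_two]; group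
        _ = s * (s * t) * t := by rw [hc]
        _ = (s * s) * (t * t) := by group
        _ = 1 := by rw [hsq s hs, hsq t ht, one_mul]
    · right
      set l := (std σ hs1 n).h e k with hl
      have hl3 : l * l ^ 2 = 1 := by
        have h4 := FiniteField.pow_card_sub_one_eq_one l h0
        rw [hF] at h4
        linear_combination h4
      rw [hq] at hsy
      have hbr : s * t * s = t * s * t := by
        apply ext_su
        intro x
        simp only [mul_mv, hf, hg, (std σ hs1 n).add_left, (std σ hs1 n).smul_left, hee, hkk, hsy, ← hl]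
        generalize (std σ hs1 n).h x e = a
        generalize (std σ hs1 n).h x k = b
        ext i
        simp only [Pi.add_apply, Pi.smul_apply, smul_eq_mul]
        linear_combination (a * e i - b * k i) * hl3 + (a * e i - b * k i) * h20
      calc (s * t) ^ 3 = (s * t * s) * (t * s * t) := by rw [pow_succ, pow_two]; group
        _ = (s * t * s) * (s * t * s) := by rw [hbr]
        _ = s * t * (s * s) * t * s := by group
        _ = s * (t * t) * s := by rw [hsq s hs]; group
        _ = 1 := by rw [hsq t ht, mul_one, hsq s hs]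

theorem closure_TV (hF : Fintype.card F = 4) (hn : 4 ≤ n) : Subgroup.closure (TV n F) = ⊤ := by
  have hF' : Fintype.card F = 2 ^ 2 := by rw [hF]; norm_num
  rw [eq_top_iff, ← closure_ut hF' (by omega : 3 ≤ n) (by omega), Subgroup.closure_le]
  rintro A ⟨v, c, hv, hA⟩
  by_cases h1 : A = 1
  · rw [h1]; exact Subgroup.one_mem _
  · apply Subgroup.subset_closure
    show (((A : Matrix.SpecialLinearGroup (Fin n) F) : Matrix (Fin n) (Fin n) F) - 1).rank = 1
    have hne : (((A : Matrix.SpecialLinearGroup (Fin n) F) : Matrix (Fin n) (Fin n) F) - 1).rank ≠ 0 := by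
      intro h0
      apply h1
      have h2 : LinearMap.range (((A : Matrix.SpecialLinearGroup (Fin n) F) : Matrix (Fin n) (Fin n) F) - 1).mulVecLin = ⊥ :=
        Submodule.finrank_eq_zero.1 h0
      apply ext_su
      intro x
      have h3 : (((A : Matrix.SpecialLinearGroup (Fin n) F) : Matrix (Fin n) (Fin n) F) - 1) *ᵥ x = 0 := by
        have : (((A : Matrix.SpecialLinearGroup (Fin n) F) : Matrix (Fin n) (Fin n) F) - 1).mulVecLin x ∈
            LinearMap.range (((A : Matrix.SpecialLinearGroup (Fin n) F) : Matrix (Fin n) (Fin n) F) - 1).mulVecLin := ⟨x, rfl⟩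
        rw [h2, Submodule.mem_bot] at this
        exact this
      rw [Matrix.sub_mulVec, sub_eq_zero] at h3
      exact h3
    have hle : (((A : Matrix.SpecialLinearGroup (Fin n) F) : Matrix (Fin n) (Fin n) F) - 1).rank ≤ 1 := by
      rw [hA]
      unfold Cfsg.unitaryTransvection
      rw [add_sub_cancel_left, ← Matrix.smul_vecMulVec]
      exact Matrix.rank_vecMulVec_le _ _
    omega

theorem class_TV (hF : Fintype.card F = 4) (hn : 4 ≤ n) : ∃ d ∈ TV n F, TV n F = conjugatesOf d := by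
  have hF' : Fintype.card F = 2 ^ 2 := by rw [hF]; norm_num
  have hne : (TV n F).Nonempty := by
    by_contra hc
    rw [Set.not_nonempty_iff_eq_empty] at hc
    have h1 := closure_TV (n := n) hF hn
    rw [hc, Subgroup.closure_empty] at h1
    have h2 : Subsingleton ↥(Cfsg.SU n F 2) := (Subgroup.subsingleton_iff).1 (subsingleton_of_bot_eq_top h1)
    have h3 := simple_PSU hF' (by omega : 3 ≤ n) (by omega)
    have h4 : Nontrivial (Cfsg.PSU n F 2) := h3.toNontrivial
    obtain ⟨a, b, hab⟩ := h4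
    obtain ⟨a', rfl⟩ := QuotientGroup.mk_surjective a
    obtain ⟨b', rfl⟩ := QuotientGroup.mk_surjective b
    exact hab (congrArg _ (Subsingleton.elim a' b'))
  obtain ⟨d, hd⟩ := hne
  refine ⟨d, hd, ?_⟩
  ext g
  change g ∈ TV n F ↔ IsConj d g
  constructor
  · intro hg
    exact su_conj_of_rank_one hF' (by omega) d g (tv_transv hd) (tv_transv hg)
  · intro h
    rw [isConj_iff] at h
    obtain ⟨k, rfl⟩ := h
    show ((((k * d * k⁻¹ : Cfsg.SU n F 2) : Matrix.SpecialLinearGroup (Fin n) F) : Matrix (Fin n) (Fin n) F) - 1).rank = 1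
    have e1 : (((k * d * k⁻¹ : Cfsg.SU n F 2) : Matrix.SpecialLinearGroup (Fin n) F) : Matrix (Fin n) (Fin n) F) - 1 =
        ((k : Matrix.SpecialLinearGroup (Fin n) F) : Matrix (Fin n) (Fin n) F) *
        (((d : Matrix.SpecialLinearGroup (Fin n) F) : Matrix (Fin n) (Fin n) F) - 1) *
        (((k⁻¹ : Cfsg.SU n F 2) : Matrix.SpecialLinearGroup (Fin n) F) : Matrix (Fin n) (Fin n) F) := by
      have e2 : ((k : Matrix.SpecialLinearGroup (Fin n) F) : Matrix (Fin n) (Fin n) F) *
        (((k⁻¹ : Cfsg.SU n F 2) : Matrix.SpecialLinearGroup (Fin n) F) : Matrix (Fin n) (Fin n) F) = 1 := by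
        have := congrArg (fun z : Cfsg.SU n F 2 => ((z : Matrix.SpecialLinearGroup (Fin n) F) : Matrix (Fin n) (Fin n) F)) (mul_inv_cancel k)
        exact this
      rw [mul_sub, sub_mul, mul_one, e2]
      rfl
    rw [e1, Matrix.rank_mul_eq_left_of_isUnit_det, Matrix.rank_mul_eq_right_of_isUnit_det]
    · exact hd
    · rw [(k : Matrix.SpecialLinearGroup (Fin n) F).2]; exact isUnit_one
    · rw [((k⁻¹ : Cfsg.SU n F 2) : Matrix.SpecialLinearGroup (Fin n) F).2]; exact isUnit_one

theorem main (hF : Fintype.card F = 4) (hn : 4 ≤ n) : Cfsg.IsThreeTranspositionClass (TV n F) :=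
  ⟨three_set hF, class_TV hF hn, closure_TV hF hn⟩

end Cfsg.Agent.Lib.SuTrans
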